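import Cfsg.Agent.Lib.Chevalley.Weyl.Chain
import Cfsg.Prelude.Def_ChevStructure

/-! Generated: the order of the Coxeter group of type B2 from coset tables. -/

set_option autoImplicit false
set_option maxRecDepth 1000000

namespace Cfsg.Agent.Lib.Chevalley.Weyl.B2

open Cfsg.Agent.Lib.Chevalley.Reflect Cfsg.Agent.Lib.Chevalley.Weyl

noncomputable section

/-- The Coxeter matrix. -/
abbrev Mx : CoxeterMatrix (Fin 2) := (CoxeterMatrix.B 2)

/-- The index in the root table of the points of the orbit. -/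
def rootOf : Tr ℕ := (.node 2 4 (.node 1 3 (.node 0 0 .nil .nil) .nil) (.node 3 7 .nil .nil))

/-- The permutation table: each simple reflection acting on the orbit of roots. -/
def sgT : Tr (Tr ℕ) := (.node 1 (.node 2 1 (.node 1 2 (.node 0 0 .nil .nil) .nil) (.node 3 3 .nil .nil)) (.node 0 (.node 2 3 (.node 1 0 (.node 0 1 .nil .nil) .nil) (.node 3 2 .nil .nil)) .nil .nil) .nil)

/-- The Coxeter exponents. -/
def mT : Tr (Tr ℕ) := (.node 1 (.node 1 1 (.node 0 4 .nil .nil) .nil) (.node 0 (.node 1 4 (.node 0 1 .nil .nil) .nil) .nil .nil) .nil)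

def sg (i y : ℕ) : ℕ := Tr.find 0 (Tr.find Tr.nil sgT i) y
def mF (a b : ℕ) : ℕ := Tr.find 1 (Tr.find Tr.nil mT a) b

theorem hP : permOK 2 4 mF sg = true := by decide +kernel
theorem hpos : mposOK 2 mF = true := by decide +kernel
theorem hM : ∀ i j : Fin 2, Mx i j = mF i j := hM_of_check Mx (by decide +kernel)

def L0 : Lvl where
  K := [1]
  J := []
  x := 1
  mc := 2
  dT := (.node 1 (.node 1 0 .nil .nil) (.node 0 (.node 1 1 .nil .nil) .nil .nil) .nil)
  cT := (.node 1 (.node 1 (2, 3) .nil .nil) (.node 0 (.node 1 (1, 0) .nil .nil) .nil .nil) .nil)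
  wT := (.node 1 [1] (.node 0 [] .nil .nil) .nil)

theorem tab0 : tableOK L0 mF = true := by decide +kernel
theorem orb0 : orbitOK L0 sg = true := by decide +kernel
theorem kn0 : lall (fun j => Nat.blt j 2) L0.K = true := by decide +kernel

def L1 : Lvl where
  K := [0, 1]
  J := [1]
  x := 0
  mc := 4
  dT := (.node 2 (.node 1 1 (.node 0 3 .nil .nil) .nil) (.node 1 (.node 1 2 (.node 0 0 .nil .nil) .nil) (.node 0 (.node 1 0 (.node 0 1 .nil .nil) .nil) .nil .nil) .nil) (.node 3 (.node 1 3 (.node 0 2 .nil .nil) .nil) .nil .nil))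
  cT := (.node 2 (.node 1 (6, 3) (.node 0 (3, 0) .nil .nil) .nil) (.node 1 (.node 1 (2, 0) (.node 0 (5, 2) .nil .nil) .nil) (.node 0 (.node 1 (4, 1) (.node 0 (1, 0) .nil .nil) .nil) .nil .nil) .nil) (.node 3 (.node 1 (8, 2) (.node 0 (7, 2) .nil .nil) .nil) .nil .nil))
  wT := (.node 2 [0, 1] (.node 1 [0] (.node 0 [] .nil .nil) .nil) (.node 3 [0, 1, 0] .nil .nil))

theorem tab1 : tableOK L1 mF = true := by decide +kernel
theorem orb1 : orbitOK L1 sg = true := by decide +kernel
theorem kn1 : lall (fun j => Nat.blt j 2) L1.K = true := by decide +kernel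

/-- The representation on the orbit. -/
abbrev rho : Mx.Group →* Equiv.Perm (Fin 4) := rhoOf Mx hP hM

def P0 : ℕ := 1

theorem good0 : Good (sC Mx) rho [1] (1 * L0.mc) := by
  have h := goodC_step Mx hP hM (L := L0) (P := 1) (good_nil (s := sC Mx) (ρ := rho)) hpos kn0 tab0 orb0 (by decide +kernel)
  rwa [Nat.mul_comm] at h

def P1 : ℕ := P0 * L0.mc

theorem good1 : Good (sC Mx) rho [0, 1] (P1 * L1.mc) := by
  have h := goodC_step Mx hP hM (L := L1) (P := P1) good0 hpos kn1 tab1 orb1 (by decide +kernel)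
  rwa [Nat.mul_comm] at h

theorem main : Finite Mx.Group ∧ Nat.card Mx.Group = 8 ∧ Function.Injective rho := by
  have h := (show Good (sC Mx) rho (List.range 2) (P1 * L1.mc) from good1).final (cl_range Mx)
  have hc : P1 * L1.mc = 8 := by decide +kernel
  rwa [hc] at h

end

end Cfsg.Agent.Lib.Chevalley.Weyl.B2
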