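import Cfsg.Agent.Lib.Chevalley.Weyl.Order

/-!
# The centre of a Coxeter group from a faithful transitive permutation representation
-/

set_option autoImplicit false

namespace Cfsg.Agent.Lib.Chevalley.Weyl

open Cfsg.Agent.Lib.Chevalley.Reflect

noncomputable section

section

variable {n N : ℕ} (M : CoxeterMatrix (Fin n)) {mF : ℕ → ℕ → ℕ} {sg : ℕ → ℕ → ℕ}
variable (hP : permOK n N mF sg = true) (hM : ∀ i j : Fin n, M i j = mF i j)

theorem rho_inv_wp {w : List ℕ} (hw : ∀ j ∈ w, j < n) (y : Fin N) :
    ((rhoOf M hP hM (wp (sC M) w))⁻¹ y).val = vec sg y.val w :=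
  inv_wp_apply (K := List.range n) (rhoOf M hP hM)
    (fun j hj y => rhoOf_sC M hP hM (List.mem_range.1 hj) y) (fun _ _ => sC_inv M _) w
    (fun j hj => List.mem_range.2 (hw j hj)) y

/-- Every point is in the orbit of the base point, with labels. -/
def labOK (L : Lvl) (sg : ℕ → ℕ → ℕ) (lab : ℕ → ℕ) (n N : ℕ) : Bool :=
  and (lall (fun c => lall (fun j => Nat.blt j n) (L.word c)) (List.range L.mc)) <|
  lall (fun y => and (Nat.blt (lab y) L.mc) (Nat.beq (vec sg L.x (L.word (lab y))) y)) (List.range N)

/-- The fixed points of the subgroup are the two given points. -/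
def fixOK (L : Lvl) (sg : ℕ → ℕ → ℕ) (x' N : ℕ) : Bool :=
  lall (fun y => or (Bool.not (lall (fun j => Nat.beq (sg j y) y) L.J))
    (or (Nat.beq y L.x) (Nat.beq y x'))) (List.range N)

variable {M hP hM}
variable {L : Lvl} {lab : ℕ → ℕ} {x' : ℕ}

/-- A central element is determined by the image of the base point. -/
theorem central_apply (hl : labOK L sg lab n N = true) (hx : L.x < N) {z : M.Group}
    (hz : z ∈ Subgroup.center M.Group) (u : Fin N) :
    ((rhoOf M hP hM z) u).val = vec sg ((rhoOf M hP hM z) ⟨L.x, hx⟩).val (L.word (lab u)) := by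
  simp only [labOK, Bool.and_eq_true, lall_eq, List.all_eq_true, List.mem_range] at hl
  have h1 := hl.2 u u.2
  have hlt : lab u < L.mc := by simpa using h1.1
  have hv : vec sg L.x (L.word (lab u)) = u := by simpa using h1.2
  have hw : ∀ j ∈ L.word (lab u), j < n := by
    intro j hj
    simpa using hl.1 (lab u) hlt j hj
  have h2 : (rhoOf M hP hM (wp (sC M) (L.word (lab u))))⁻¹ ⟨L.x, hx⟩ = u := by
    apply Fin.ext
    rw [rho_inv_wp M hP hM hw]
    exact hv
  have hcomm : wp (sC M) (L.word (lab u)) * z = z * wp (sC M) (L.word (lab u)) :=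
    Subgroup.mem_center_iff.1 hz _
  have hcomm' : (rhoOf M hP hM (wp (sC M) (L.word (lab u))))⁻¹ * rhoOf M hP hM z =
      rhoOf M hP hM z * (rhoOf M hP hM (wp (sC M) (L.word (lab u))))⁻¹ := by
    rw [← map_inv, ← map_mul, ← map_mul]
    congr 1
    rw [inv_mul_eq_iff_eq_mul, ← mul_assoc, hcomm, mul_assoc, mul_inv_cancel, mul_one]
  rw [← rho_inv_wp M hP hM hw]
  conv_lhs => rw [← h2]
  rw [← Equiv.Perm.mul_apply, ← hcomm', Equiv.Perm.mul_apply]

theorem central_eq (hinj : Function.Injective (rhoOf M hP hM))
    (hl : labOK L sg lab n N = true) (hx : L.x < N) {z z' : M.Group}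
    (hz : z ∈ Subgroup.center M.Group) (hz' : z' ∈ Subgroup.center M.Group)
    (h : (rhoOf M hP hM z) ⟨L.x, hx⟩ = (rhoOf M hP hM z') ⟨L.x, hx⟩) : z = z' := by
  apply hinj
  ext u
  rw [central_apply hl hx hz, central_apply hl hx hz', h]

theorem central_fix (hJ : ∀ j ∈ L.J, j < n) (hfix : lall (fun j => Nat.beq (sg j L.x) L.x) L.J = true)
    (hF : fixOK L sg x' N = true) (hx : L.x < N) {z : M.Group}
    (hz : z ∈ Subgroup.center M.Group) :
    ((rhoOf M hP hM z) ⟨L.x, hx⟩).val = L.x ∨ ((rhoOf M hP hM z) ⟨L.x, hx⟩).val = x' := by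
  simp only [fixOK, lall_eq, List.all_eq_true, List.mem_range] at hF
  simp only [lall_eq, List.all_eq_true] at hfix
  set y := (rhoOf M hP hM z) ⟨L.x, hx⟩ with hy
  have h1 := hF y.1 y.2
  have h2 : lall (fun j => Nat.beq (sg j y.1) y.1) L.J = true := by
    rw [lall_eq, List.all_eq_true]
    intro j hj
    have hj' := hJ j hj
    have hxj : (rhoOf M hP hM (sC M j)) ⟨L.x, hx⟩ = ⟨L.x, hx⟩ := by
      apply Fin.ext
      rw [rhoOf_sC M hP hM hj']
      simpa using hfix j hj
    have hc : sC M j * z = z * sC M j := Subgroup.mem_center_iff.1 hz _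
    have h3 : (rhoOf M hP hM (sC M j)) y = y := by
      rw [hy, ← Equiv.Perm.mul_apply, ← map_mul, hc, map_mul, Equiv.Perm.mul_apply, hxj]
    have h4 := congrArg Fin.val h3
    rw [rhoOf_sC M hP hM hj'] at h4
    simpa using h4
  rw [lall_eq] at h2
  rw [h2] at h1
  simp only [Bool.not_true, Bool.false_or, Bool.or_eq_true] at h1
  rcases h1 with h1 | h1
  · left; simpa using h1
  · right; simpa using h1

/-- The centre when there is a central element moving the base point to the second fixed point. -/
theorem center_two (hinj : Function.Injective (rhoOf M hP hM))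
    (hl : labOK L sg lab n N = true) (hJ : ∀ j ∈ L.J, j < n)
    (hfix : lall (fun j => Nat.beq (sg j L.x) L.x) L.J = true)
    (hF : fixOK L sg x' N = true) (hx : L.x < N) (hne : x' ≠ L.x) {z0 : M.Group}
    (hz0 : z0 ∈ Subgroup.center M.Group) (hz0x : ((rhoOf M hP hM z0) ⟨L.x, hx⟩).val = x') :
    Nat.card (Subgroup.center M.Group) = 2 ∧ (∀ z ∈ Subgroup.center M.Group, z = 1 ∨ z = z0) := by
  have hall : ∀ z ∈ Subgroup.center M.Group, z = 1 ∨ z = z0 := by
    intro z hz
    rcases central_fix hJ hfix hF hx hz with h | h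
    · left
      apply central_eq hinj hl hx hz (Subgroup.one_mem _)
      apply Fin.ext
      rw [h, map_one]
      rfl
    · right
      apply central_eq hinj hl hx hz hz0
      apply Fin.ext
      rw [h, hz0x]
  refine ⟨?_, hall⟩
  have hne1 : z0 ≠ 1 := by
    rintro rfl
    rw [map_one] at hz0x
    exact hne hz0x.symm
  rw [Nat.card_eq_two_iff]
  refine ⟨⟨1, Subgroup.one_mem _⟩, ⟨z0, hz0⟩, ?_, ?_⟩
  · intro h
    exact hne1 (congrArg Subtype.val h).symm
  · ext ⟨z, hz⟩
    simp only [Set.mem_insert_iff, Set.mem_singleton_iff, Set.mem_univ, iff_true, Subtype.mk.injEq]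
    exact hall z hz

/-- An element whose image under the representation commutes with the generators is central. -/
theorem central_of_comm (hinj : Function.Injective (rhoOf M hP hM)) {z : M.Group}
    (h : ∀ j < n, ∀ y : Fin N, ((rhoOf M hP hM z) ((rhoOf M hP hM (sC M j)) y)).val =
      ((rhoOf M hP hM (sC M j)) ((rhoOf M hP hM z) y)).val) : z ∈ Subgroup.center M.Group := by
  rw [Subgroup.mem_center_iff]
  intro g
  induction g using M.toCoxeterSystem.simple_induction with
  | simple i =>
    apply hinj
    rw [map_mul, map_mul]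
    ext y
    have := h i.1 i.2 y
    rw [sC_fin] at this
    exact this.symm
  | one => simp
  | mul a b ha hb => rw [mul_assoc, hb, ← mul_assoc, ha, mul_assoc]

/-- Commutation of a power of a word with the generators, from the table. -/
def commOK (n N : ℕ) (sg : ℕ → ℕ → ℕ) (w : List ℕ) (k : ℕ) : Bool :=
  lall (fun j => lall (fun y => Nat.beq (iter k (appl sg w) (sg j y)) (sg j (iter k (appl sg w) y)))
    (List.range N)) (List.range n)

theorem central_pow_wp (hinj : Function.Injective (rhoOf M hP hM)) {w : List ℕ} (hw : ∀ j ∈ w, j < n) {k : ℕ}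
    (hc : commOK n N sg w k = true) :
    wp (sC M) w ^ k ∈ Subgroup.center M.Group := by
  simp only [commOK, lall_eq, List.all_eq_true, List.mem_range] at hc
  apply central_of_comm hinj
  intro j hj y
  rw [map_pow, rho_pow_wp M hP hM hw, rhoOf_sC M hP hM hj, rhoOf_sC M hP hM hj,
    rho_pow_wp M hP hM hw]
  simpa using hc j hj y y.2

/-! ### Sifting -/

/-- The levels are consecutive, all the checks pass. -/
def chainB (n N : ℕ) (mF : ℕ → ℕ → ℕ) (sg : ℕ → ℕ → ℕ) (ls : List Lvl) : List ℕ → Bool :=
  List.rec (fun _ => true)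
    (fun L _ ih K => and (leqb K L.K) <| and (lall (fun j => Nat.blt j n) L.K) <|
      and (tableOK L mF) <| and (orbitOK L sg) <| and (Nat.blt L.x N) (ih L.J)) ls

/-- The sifting of a permutation (given by its inverse) through the chain fails. -/
def siftB (sg : ℕ → ℕ → ℕ) (ls : List Lvl) : (ℕ → ℕ) → Bool :=
  List.rec (fun _ => false)
    (fun L _ ih gi => lall (fun c => or (Bool.not (Nat.beq (vec sg L.x (L.word c)) (gi L.x)))
      (ih (fun y => appl sg (L.word c) (gi y)))) (List.range L.mc)) ls

theorem sift_sound (hpos : mposOK n mF = true) (ls : List Lvl) :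
    ∀ (K : List ℕ) (gi : ℕ → ℕ), chainB n N mF sg ls K = true → siftB sg ls gi = true →
    ∀ g ∈ (cl (sC M) K).map (rhoOf M hP hM), (∀ y : Fin N, (g⁻¹ y).val = gi y.val) → False := by
  have hM' : ∀ a < n, ∀ b < n, 1 ≤ mF a b := by
    simp only [mposOK, lall_eq, List.all_eq_true, List.mem_range] at hpos
    intro a ha b hb
    have h := hpos a ha b hb
    simp only [Nat.blt_eq] at h
    exact h
  induction ls with
  | nil =>
    intro K gi _ h
    exact absurd h (by simp [siftB])
  | cons L ls ih =>
    intro K gi hch hs g hg hgi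
    have hch' : and (leqb K L.K) (and (lall (fun j => Nat.blt j n) L.K) (and (tableOK L mF) (and (orbitOK L sg)
        (and (Nat.blt L.x N) (chainB n N mF sg ls L.J))))) = true := hch
    simp only [Bool.and_eq_true] at hch'
    obtain ⟨h1, h2, h3, h4, h5, h6⟩ := hch'
    have hKeq : K = L.K := leqb_eq _ _ h1
    subst hKeq
    have hKn : ∀ j ∈ L.K, j < n := by
      simp only [lall_eq, List.all_eq_true] at h2
      intro j hj
      simpa using h2 j hj
    have hx : L.x < N := by simpa using h5
    obtain ⟨a, ha, rfl⟩ := hg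
    obtain ⟨c, hc, hac⟩ := cover (s := sC M) (L := L) (mF := mF) h3
      (fun x hx' y hy => relC M hM hM' (hKn x hx') (hKn y hy)) (fun a _ => sC_inv M a) ha
    have hfix : (rhoOf M hP hM (a * (T (sC M) L c)⁻¹)) ⟨L.x, hx⟩ = ⟨L.x, hx⟩ := by
      have hO := h4
      simp only [orbitOK, Bool.and_eq_true, lall_eq, List.all_eq_true] at hO
      generalize a * (T (sC M) L c)⁻¹ = b at hac
      revert hac
      intro hac
      rw [cl] at hac
      induction hac using Subgroup.closure_induction with
      | mem y hy =>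
        obtain ⟨j, hj, rfl⟩ := hy
        apply Fin.ext
        rw [rhoOf_sC M hP hM (hKn j (J_sub h3 j hj))]
        simpa using hO.1 j hj
      | one => simp
      | mul a b _ _ iha ihb => rw [map_mul, Equiv.Perm.mul_apply, ihb, iha]
      | inv a _ iha =>
        rw [map_inv, Equiv.Perm.inv_eq_iff_eq]
        exact iha.symm
    have hwc : ∀ j ∈ L.word c, j < n := fun j hj => hKn j (word_letters h3 hc j hj)
    have hv : vec sg L.x (L.word c) = gi L.x := by
      have h7 := hgi ⟨L.x, hx⟩
      rw [← h7, ← rho_inv_wp M hP hM hwc ⟨L.x, hx⟩]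
      congr 1
      have h8 : a = (a * (T (sC M) L c)⁻¹) * T (sC M) L c := by group
      conv_rhs => rw [h8, map_mul, mul_inv_rev, Equiv.Perm.mul_apply]
      rw [T]
      congr 1
      rw [Equiv.Perm.eq_inv_iff_eq]
      exact hfix
    have hs' : siftB sg (L :: ls) gi = lall (fun c => or (Bool.not (Nat.beq (vec sg L.x (L.word c)) (gi L.x)))
        (siftB sg ls (fun y => appl sg (L.word c) (gi y)))) (List.range L.mc) := rfl
    rw [hs', lall_eq, List.all_eq_true] at hs
    have h9 := hs c (List.mem_range.2 hc)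
    rw [hv] at h9
    simp only [Nat.beq_refl, Bool.not_true, Bool.false_or] at h9
    refine ih L.J _ h6 h9 (rhoOf M hP hM (a * (T (sC M) L c)⁻¹)) (Subgroup.mem_map_of_mem _ hac) ?_
    intro y
    rw [map_mul, mul_inv_rev, map_inv, inv_inv, Equiv.Perm.mul_apply, T, rho_wp M hP hM hwc, hgi]

/-- The centre is trivial when the second fixed point cannot be the image of the base point. -/
theorem center_one (hinj : Function.Injective (rhoOf M hP hM)) (hpos : mposOK n mF = true)
    (hl : labOK L sg lab n N = true) (hJ : ∀ j ∈ L.J, j < n)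
    (hfix : lall (fun j => Nat.beq (sg j L.x) L.x) L.J = true)
    (hF : fixOK L sg x' N = true) (hx : L.x < N) (ls : List Lvl)
    (hch : chainB n N mF sg ls (List.range n) = true)
    (hs : siftB sg ls (fun y => vec sg x' (L.word (lab y))) = true) :
    Subgroup.center M.Group = ⊥ := by
  rw [eq_bot_iff]
  intro z hz
  rw [Subgroup.mem_bot]
  by_contra hz1
  have hz' : z⁻¹ ∈ Subgroup.center M.Group := Subgroup.inv_mem _ hz
  have h1 : ((rhoOf M hP hM z⁻¹) ⟨L.x, hx⟩).val = x' := by
    rcases central_fix hJ hfix hF hx hz' with h | h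
    · exfalso
      apply hz1
      have : z⁻¹ = 1 := by
        apply central_eq hinj hl hx hz' (Subgroup.one_mem _)
        apply Fin.ext
        rw [h, map_one]
        rfl
      simpa using this
    · exact h
  have htop : rhoOf M hP hM z ∈ (cl (sC M) (List.range n)).map (rhoOf M hP hM) := by
    rw [cl_range]
    exact Subgroup.mem_map_of_mem _ (Subgroup.mem_top _)
  refine sift_sound hpos ls _ _ hch hs _ htop ?_
  intro y
  rw [← map_inv, central_apply hl hx hz' y, h1]

/-- The final form for the types in which the centre has order two. -/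
theorem center_main_two (hinj : Function.Injective (rhoOf M hP hM))
    (hl : labOK L sg lab n N = true) (hJ : lall (fun j => Nat.blt j n) L.J = true)
    (hfix : lall (fun j => Nat.beq (sg j L.x) L.x) L.J = true)
    (hF : fixOK L sg x' N = true) (hx : L.x < N) (hne : Nat.beq x' L.x = false) {k : ℕ}
    (hc : commOK n N sg (List.range n) k = true)
    (hzx : Nat.beq (iter k (appl sg (List.range n)) L.x) x' = true) :
    Nat.card (Subgroup.center M.Group) = 2 ∧
      Subgroup.center M.Group ≤ Subgroup.zpowers ((List.finRange n).map M.simple).prod := by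
  have hw : ∀ j ∈ List.range n, j < n := fun j hj => List.mem_range.1 hj
  have hJ' : ∀ j ∈ L.J, j < n := by
    simp only [lall_eq, List.all_eq_true] at hJ
    intro j hj
    simpa using hJ j hj
  have hz0 : wp (sC M) (List.range n) ^ k ∈ Subgroup.center M.Group :=
    central_pow_wp hinj hw hc
  have hz0x : ((rhoOf M hP hM (wp (sC M) (List.range n) ^ k)) ⟨L.x, hx⟩).val = x' := by
    rw [map_pow, rho_pow_wp M hP hM hw]
    exact Nat.eq_of_beq_eq_true hzx
  have hne' : x' ≠ L.x := by
    intro h
    rw [h] at hne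
    simp at hne
  obtain ⟨h1, h2⟩ := center_two hinj hl hJ' hfix hF hx hne' hz0 hz0x
  refine ⟨h1, ?_⟩
  intro z hz
  rw [cox_eq]
  rcases h2 z hz with rfl | rfl
  · exact Subgroup.one_mem _
  · exact Subgroup.pow_mem _ (Subgroup.mem_zpowers _) _

/-- The final form for the types with trivial centre. -/
theorem center_main_one (hinj : Function.Injective (rhoOf M hP hM)) (hpos : mposOK n mF = true)
    (hl : labOK L sg lab n N = true) (hJ : lall (fun j => Nat.blt j n) L.J = true)
    (hfix : lall (fun j => Nat.beq (sg j L.x) L.x) L.J = true)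
    (hF : fixOK L sg x' N = true) (hx : L.x < N) (ls : List Lvl)
    (hch : chainB n N mF sg ls (List.range n) = true)
    (hs : siftB sg ls (fun y => vec sg x' (L.word (lab y))) = true) :
    Nat.card (Subgroup.center M.Group) = 1 ∧
      Subgroup.center M.Group ≤ Subgroup.zpowers ((List.finRange n).map M.simple).prod := by
  have hJ' : ∀ j ∈ L.J, j < n := by
    simp only [lall_eq, List.all_eq_true] at hJ
    intro j hj
    simpa using hJ j hj
  have h := center_one hinj hpos hl hJ' hfix hF hx ls hch hs
  rw [h]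
  simp

end

end

end Cfsg.Agent.Lib.Chevalley.Weyl
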