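import Mathlib.GroupTheory.Coxeter.Basic
import Mathlib.GroupTheory.Perm.Basic
import Mathlib.SetTheory.Cardinal.Finite
import Mathlib.Algebra.Group.Subgroup.Map
import Cfsg.Agent.Lib.Chevalley.Reflect

/-!
# Orders of Coxeter groups from coset tables

A chain of subgroups generated by subsets of the generators. At each level:
* the upper bound on the index comes from a coset table with a derivation, in the style of Todd and Coxeter,
  showing that the right cosets of the small subgroup represented by the table are permuted by the generators;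
* the lower bound comes from a permutation representation in which the small subgroup fixes a point whose
  images under the inverses of the representatives are distinct.
-/

set_option autoImplicit false

namespace Cfsg.Agent.Lib.Chevalley.Weyl

open Cfsg.Agent.Lib.Chevalley.Reflect

noncomputable section

/-- A level of the chain: the coset table of the subgroup generated by `J` in the subgroup generated by `K`. -/
structure Lvl where
  K : List ℕ
  J : List ℕ
  x : ℕ
  mc : ℕ
  dT : Tr (Tr ℕ)
  cT : Tr (Tr (ℕ × ℕ))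
  wT : Tr (List ℕ)

namespace Lvl

variable (L : Lvl)

/-- The coset `c * s j`. -/
def d (c j : ℕ) : ℕ := Tr.find 0 (Tr.find Tr.nil L.dT c) j

/-- The stage of the derivation at which the edge `(c, j)` is known. -/
def time (c j : ℕ) : ℕ := (Tr.find (0, 0) (Tr.find Tr.nil L.cT c) j).1

/-- The reason for the edge `(c, j)`: `0` a tree edge, `1` a loop at the base coset,
`b + 2` the Coxeter relator for the generators `j`, `b`. -/
def kind (c j : ℕ) : ℕ := (Tr.find (0, 0) (Tr.find Tr.nil L.cT c) j).2

/-- The word of the representative of the coset `c`. -/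
def word (c : ℕ) : List ℕ := Tr.find [] L.wT c

end Lvl

/-- The alternating word `b j b j ...` of length `n`. -/
def alt (b j : ℕ) (n : ℕ) : List ℕ :=
  (Nat.rec (fun _ _ => []) (fun _ ih a a' => a :: ih a' a) n : ℕ → ℕ → List ℕ) b j

theorem alt_zero (b j : ℕ) : alt b j 0 = [] := rfl
theorem alt_succ (b j n : ℕ) : alt b j (n + 1) = b :: alt j b n := rfl

/-- List membership, for the kernel. -/
def lmem (a : ℕ) (l : List ℕ) : Bool :=
  List.rec false (fun b _ ih => Bool.rec ih true (Nat.beq a b)) l

theorem lmem_iff (a : ℕ) (l : List ℕ) : lmem a l = true ↔ a ∈ l := by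
  induction l with
  | nil => simp [lmem]
  | cons b l ih =>
    have h : lmem a (b :: l) = Bool.rec (lmem a l) true (Nat.beq a b) := rfl
    rw [h, List.mem_cons]
    by_cases hab : a = b
    · subst hab; simp
    · have : Nat.beq a b = false := by
        rw [Bool.eq_false_iff]
        intro h
        exact hab (Nat.eq_of_beq_eq_true h)
      rw [this]
      simp [ih, hab]

/-- List equality, for the kernel. -/
def leqb (l : List ℕ) : List ℕ → Bool :=
  List.rec (fun m => List.rec true (fun _ _ _ => false) m)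
    (fun a _ ih m => List.rec false (fun b m' _ => Bool.rec false (ih m') (Nat.beq a b)) m) l

theorem leqb_eq : ∀ (l m : List ℕ), leqb l m = true → l = m := by
  intro l
  induction l with
  | nil =>
    intro m h
    cases m with
    | nil => rfl
    | cons _ _ => exact absurd h (by simp [leqb])
  | cons a l ih =>
    intro m h
    cases m with
    | nil => exact absurd h (by simp [leqb])
    | cons b m =>
      have h' : leqb (a :: l) (b :: m) = Bool.rec false (leqb l m) (Nat.beq a b) := rfl
      rw [h'] at h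
      by_cases hab : a = b
      · subst hab
        simp only [Nat.beq_refl] at h
        rw [ih m h]
      · have : Nat.beq a b = false := by
          rw [Bool.eq_false_iff]
          intro h
          exact hab (Nat.eq_of_beq_eq_true h)
        rw [this] at h
        exact absurd h (by simp)

/-- Following the table along a word with edges known before stage `k`. -/
def walkOK (L : Lvl) (k target : ℕ) (w : List ℕ) : ℕ → Bool :=
  List.rec (fun c => Nat.beq c target)
    (fun j _ ih c => Bool.rec false (ih (L.d c j)) (and (Nat.blt c L.mc) (Nat.blt (L.time c j) k))) w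

theorem walkOK_nil (L : Lvl) (k target c : ℕ) : walkOK L k target [] c = Nat.beq c target := rfl
theorem walkOK_cons (L : Lvl) (k target j : ℕ) (w : List ℕ) (c : ℕ) :
    walkOK L k target (j :: w) c =
      Bool.rec false (walkOK L k target w (L.d c j)) (and (Nat.blt c L.mc) (Nat.blt (L.time c j) k)) := rfl

/-- The local check at the edge `(c, j)`. -/
def edgeOK (L : Lvl) (mF : ℕ → ℕ → ℕ) (c j : ℕ) : Bool :=
  Nat.rec (leqb (L.word (L.d c j)) (lapp (L.word c) [j]))
    (fun k _ =>
      Nat.rec (and (Nat.beq c 0) (and (lmem j L.J) (Nat.beq (L.d c j) 0)))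
        (fun b _ => and (lmem b L.K)
          (walkOK L (L.time c j) c (alt b j (Nat.pred (Nat.mul 2 (mF j b)))) (L.d c j))) k)
    (L.kind c j)

/-- The table is complete, and its derivation is correct. -/
def tableOK (L : Lvl) (mF : ℕ → ℕ → ℕ) : Bool :=
  and (Nat.blt 0 L.mc) <| and (leqb (L.word 0) []) <|
  and (lall (fun j => lmem j L.K) L.J) <|
  lall (fun c => and (lall (fun j => lmem j L.K) (L.word c)) <|
    lall (fun j => and (Nat.blt (L.d c j) L.mc) (edgeOK L mF c j)) L.K) (List.range L.mc)

/-- The point `(T c)⁻¹ x` computed from the word of the representative. -/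
def vec (sg : ℕ → ℕ → ℕ) (x : ℕ) (w : List ℕ) : ℕ :=
  (List.rec (fun y => y) (fun j _ ih y => ih (sg j y)) w : ℕ → ℕ) x

theorem vec_nil (sg : ℕ → ℕ → ℕ) (x : ℕ) : vec sg x [] = x := rfl
theorem vec_cons (sg : ℕ → ℕ → ℕ) (x j : ℕ) (w : List ℕ) : vec sg x (j :: w) = vec sg (sg j x) w := rfl

/-- Pairwise distinct. -/
def distinctB (l : List ℕ) : Bool :=
  List.rec true (fun a m ih => and (lall (fun b => Bool.not (Nat.beq a b)) m) ih) l

theorem distinctB_sound (l : List ℕ) (h : distinctB l = true) : l.Nodup := by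
  induction l with
  | nil => exact List.nodup_nil
  | cons a m ih =>
    have h' : distinctB (a :: m) = and (lall (fun b => Bool.not (Nat.beq a b)) m) (distinctB m) := rfl
    rw [h', Bool.and_eq_true, lall_eq, List.all_eq_true] at h
    refine List.nodup_cons.2 ⟨?_, ih h.2⟩
    intro hm
    have := h.1 a hm
    simp at this

/-- The lower bound check: the subgroup fixes `x` and the images of `x` are distinct. -/
def orbitOK (L : Lvl) (sg : ℕ → ℕ → ℕ) : Bool :=
  and (lall (fun j => Nat.beq (sg j L.x) L.x) L.J) <|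
  distinctB (lmap (fun c => vec sg L.x (L.word c)) (List.range L.mc))

section Group

variable {G : Type*} [Group G] (s : ℕ → G)

/-- The product of a word. -/
def wp (w : List ℕ) : G := (w.map s).prod

@[simp] theorem wp_nil : wp s [] = 1 := rfl
@[simp] theorem wp_cons (j : ℕ) (w : List ℕ) : wp s (j :: w) = s j * wp s w := by simp [wp]
theorem wp_append (w w' : List ℕ) : wp s (w ++ w') = wp s w * wp s w' := by simp [wp]

/-- The subgroup generated by a list of the generators. -/
def cl (l : List ℕ) : Subgroup G := Subgroup.closure {g | ∃ j ∈ l, g = s j}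

theorem s_mem_cl {l : List ℕ} {j : ℕ} (hj : j ∈ l) : s j ∈ cl s l := Subgroup.subset_closure ⟨j, hj, rfl⟩

theorem wp_mem_cl {l w : List ℕ} (h : ∀ j ∈ w, j ∈ l) : wp s w ∈ cl s l := by
  induction w with
  | nil => exact Subgroup.one_mem _
  | cons j w ih =>
    rw [wp_cons]
    exact Subgroup.mul_mem _ (s_mem_cl s (h j (by simp))) (ih fun a ha => h a (by simp [ha]))

theorem cl_nil : cl s [] = ⊥ := by
  rw [cl]
  have : {g : G | ∃ j ∈ ([] : List ℕ), g = s j} = ∅ := by ext g; simp
  rw [this, Subgroup.closure_empty]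

theorem cl_mono {l l' : List ℕ} (h : ∀ j ∈ l, j ∈ l') : cl s l ≤ cl s l' :=
  Subgroup.closure_mono (by rintro g ⟨j, hj, rfl⟩; exact ⟨j, h j hj, rfl⟩)

theorem wp_alt (a b : ℕ) (n : ℕ) :
    s a * wp s (alt b a (2 * n + 1)) = (s a * s b) ^ (n + 1) := by
  induction n generalizing a b with
  | zero =>
    simp [alt_succ, alt_zero]
  | succ n ih =>
    have h1 : alt b a (2 * (n + 1) + 1) = b :: a :: alt b a (2 * n + 1) := rfl
    rw [h1, wp_cons, wp_cons, ← mul_assoc, ← mul_assoc, mul_assoc (s a * s b), ih, pow_succ' _ (n + 1)]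

variable (L : Lvl) (mF : ℕ → ℕ → ℕ)

/-- The representative of the coset `c`. -/
def T (c : ℕ) : G := wp s (L.word c)

variable {s L mF}

theorem walk_mem (h : Subgroup G) {k target : ℕ}
    (ih : ∀ k' < k, ∀ c < L.mc, ∀ j ∈ L.K, L.time c j = k' →
      T s L c * s j * (T s L (L.d c j))⁻¹ ∈ h)
    (w : List ℕ) (hw : ∀ j ∈ w, j ∈ L.K) (c : ℕ) (hc : walkOK L k target w c = true) :
    T s L c * wp s w * (T s L target)⁻¹ ∈ h := by
  induction w generalizing c with
  | nil =>
    rw [walkOK_nil] at hc
    have : c = target := by simpa using hc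
    subst this
    simp [h.one_mem]
  | cons j w ihw =>
    rw [walkOK_cons] at hc
    cases hq : and (Nat.blt c L.mc) (Nat.blt (L.time c j) k) with
    | false => rw [hq] at hc; exact absurd hc (by simp)
    | true =>
      rw [hq] at hc
      have hq' := hq
      simp only [Bool.and_eq_true] at hq'
      have hc1 : c < L.mc := by simpa using hq'.1
      have hc2 : L.time c j < k := by simpa using hq'.2
      have h1 := ih _ hc2 c hc1 j (hw j (by simp)) rfl
      have h2 := ihw (fun a ha => hw a (by simp [ha])) _ hc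
      have : T s L c * wp s (j :: w) * (T s L target)⁻¹ =
          (T s L c * s j * (T s L (L.d c j))⁻¹) * (T s L (L.d c j) * wp s w * (T s L target)⁻¹) := by
        rw [wp_cons]; group
      rw [this]
      exact h.mul_mem h1 h2

theorem word_letters {L : Lvl} {mF : ℕ → ℕ → ℕ} (hL : tableOK L mF = true) {c : ℕ} (hc : c < L.mc) :
    ∀ j ∈ L.word c, j ∈ L.K := by
  simp only [tableOK, Bool.and_eq_true, lall_eq, List.all_eq_true, List.mem_range] at hL
  intro j hj
  exact (lmem_iff _ _).1 ((hL.2.2.2 c hc).1 j hj)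

theorem J_sub {L : Lvl} {mF : ℕ → ℕ → ℕ} (hL : tableOK L mF = true) : ∀ j ∈ L.J, j ∈ L.K := by
  simp only [tableOK, Bool.and_eq_true, lall_eq, List.all_eq_true, List.mem_range] at hL
  intro j hj
  exact (lmem_iff _ _).1 (hL.2.2.1 j hj)

/-- The generators permute the cosets represented by the table. -/
theorem edge_mem (hL : tableOK L mF = true)
    (hrel : ∀ a ∈ L.K, ∀ b ∈ L.K, 1 ≤ mF a b ∧ (s a * s b) ^ mF a b = 1) :
    ∀ c < L.mc, ∀ j ∈ L.K, T s L c * s j * (T s L (L.d c j))⁻¹ ∈ cl s L.J := by
  have main : ∀ k, ∀ c < L.mc, ∀ j ∈ L.K, L.time c j = k →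
      T s L c * s j * (T s L (L.d c j))⁻¹ ∈ cl s L.J := by
    intro k
    induction k using Nat.strong_induction_on with
    | _ k ih =>
      intro c hc j hj ht
      have hE : edgeOK L mF c j = true := by
        simp only [tableOK, Bool.and_eq_true, lall_eq, List.all_eq_true, List.mem_range] at hL
        exact ((hL.2.2.2 c hc).2 j hj).2
      rw [edgeOK] at hE
      cases hk : L.kind c j with
      | zero =>
        rw [hk] at hE
        have hw : L.word (L.d c j) = lapp (L.word c) [j] := leqb_eq _ _ hE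
        have : T s L c * s j * (T s L (L.d c j))⁻¹ = 1 := by
          rw [T, T, hw, lapp_eq, wp_append]
          simp
        rw [this]
        exact Subgroup.one_mem _
      | succ n =>
        rw [hk] at hE
        cases n with
        | zero =>
          have hE' : and (Nat.beq c 0) (and (lmem j L.J) (Nat.beq (L.d c j) 0)) = true := hE
          simp only [Bool.and_eq_true] at hE'
          have h0 : c = 0 := by simpa using hE'.1
          have hjJ : j ∈ L.J := (lmem_iff _ _).1 hE'.2.1
          have hd : L.d c j = 0 := by simpa using hE'.2.2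
          have hw0 : L.word 0 = [] := by
            simp only [tableOK, Bool.and_eq_true] at hL
            exact leqb_eq _ _ hL.2.1
          rw [hd, h0, T, hw0]
          simpa using s_mem_cl s hjJ
        | succ b =>
          have hE' : and (lmem b L.K)
              (walkOK L (L.time c j) c (alt b j (Nat.pred (Nat.mul 2 (mF j b)))) (L.d c j)) = true := hE
          simp only [Bool.and_eq_true] at hE'
          have hb : b ∈ L.K := (lmem_iff _ _).1 hE'.1
          have hm := hrel j hj b hb
          obtain ⟨m, hm'⟩ : ∃ m, mF j b = m + 1 := ⟨mF j b - 1, by omega⟩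
          have hlen : Nat.pred (Nat.mul 2 (mF j b)) = 2 * m + 1 := by
            rw [hm']
            show 2 * (m + 1) - 1 = 2 * m + 1
            omega
          rw [hlen, ht] at hE'
          have halt : ∀ n (u v : ℕ), u ∈ L.K → v ∈ L.K → ∀ a ∈ alt u v n, a ∈ L.K := by
            intro n
            induction n with
            | zero => intro u v _ _ a ha; simp [alt_zero] at ha
            | succ n ih' =>
              intro u v hu hv a ha
              rw [alt_succ] at ha
              rcases List.mem_cons.1 ha with rfl | ha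
              · exact hu
              · exact ih' v u hv hu a ha
          have hw := walk_mem (s := s) (L := L) (cl s L.J) (k := k) (target := c)
            (fun k' hk' c' hc' j' hj' ht' => ih k' hk' c' hc' j' hj' ht')
            (alt b j (2 * m + 1)) (halt _ _ _ hb hj) (L.d c j) hE'.2
          have hone : T s L c * s j * (T s L (L.d c j))⁻¹ *
              (T s L (L.d c j) * wp s (alt b j (2 * m + 1)) * (T s L c)⁻¹) = 1 := by
            have h1 : T s L c * s j * (T s L (L.d c j))⁻¹ *
                (T s L (L.d c j) * wp s (alt b j (2 * m + 1)) * (T s L c)⁻¹) =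
                T s L c * (s j * wp s (alt b j (2 * m + 1))) * (T s L c)⁻¹ := by group
            rw [h1, wp_alt s, ← hm', hm.2]
            simp
          rw [eq_inv_of_mul_eq_one_left hone]
          exact Subgroup.inv_mem _ hw
  exact fun c hc j hj => main _ c hc j hj rfl

theorem T_zero (hL : tableOK L mF = true) : T s L 0 = 1 := by
  have hw0 : L.word 0 = [] := by
    simp only [tableOK, Bool.and_eq_true] at hL
    exact leqb_eq _ _ hL.2.1
  rw [T, hw0, wp_nil]

theorem d_lt (hL : tableOK L mF = true) {c j : ℕ} (hc : c < L.mc) (hj : j ∈ L.K) : L.d c j < L.mc := by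
  simp only [tableOK, Bool.and_eq_true, lall_eq, List.all_eq_true, List.mem_range] at hL
  simpa using ((hL.2.2.2 c hc).2 j hj).1

theorem mc_pos (hL : tableOK L mF = true) : 0 < L.mc := by
  simp only [tableOK, Bool.and_eq_true] at hL
  simpa using hL.1

/-- Every element of the big subgroup lies in a coset represented by the table. -/
theorem cover (hL : tableOK L mF = true)
    (hrel : ∀ a ∈ L.K, ∀ b ∈ L.K, 1 ≤ mF a b ∧ (s a * s b) ^ mF a b = 1)
    (hinv : ∀ a ∈ L.K, s a * s a = 1)
    {g : G} (hg : g ∈ cl s L.K) : ∃ c < L.mc, g * (T s L c)⁻¹ ∈ cl s L.J := by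
  have hE := edge_mem (s := s) (L := L) (mF := mF) hL hrel
  have key : ∀ (g : G) (j : ℕ), j ∈ L.K → (∃ c < L.mc, g * (T s L c)⁻¹ ∈ cl s L.J) →
      ∃ c < L.mc, (g * s j) * (T s L c)⁻¹ ∈ cl s L.J := by
    rintro g j hj ⟨c, hc, hgc⟩
    refine ⟨L.d c j, d_lt hL hc hj, ?_⟩
    have : (g * s j) * (T s L (L.d c j))⁻¹ =
        (g * (T s L c)⁻¹) * (T s L c * s j * (T s L (L.d c j))⁻¹) := by group
    rw [this]
    exact Subgroup.mul_mem _ hgc (hE c hc j hj)
  rw [cl] at hg
  induction hg using Subgroup.closure_induction_right with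
  | one =>
    refine ⟨0, mc_pos hL, ?_⟩
    rw [T_zero (mF := mF) hL]
    simp
  | mul_right x y _ hy ih =>
    obtain ⟨j, hj, rfl⟩ := hy
    exact key x j hj ih
  | mul_inv_cancel x y _ hy ih =>
    obtain ⟨j, hj, rfl⟩ := hy
    have hi : (s j)⁻¹ = s j := inv_eq_of_mul_eq_one_left (hinv j hj)
    rw [hi]
    exact key x j hj ih

end Group

section Cards

variable {G : Type*} [Group G] {s : ℕ → G} {L : Lvl} {mF : ℕ → ℕ → ℕ}

theorem card_le (hL : tableOK L mF = true)
    (hrel : ∀ a ∈ L.K, ∀ b ∈ L.K, 1 ≤ mF a b ∧ (s a * s b) ^ mF a b = 1)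
    (hinv : ∀ a ∈ L.K, s a * s a = 1) [Finite (cl s L.J)] :
    Finite (cl s L.K) ∧ Nat.card (cl s L.K) ≤ L.mc * Nat.card (cl s L.J) := by
  classical
  have hle : cl s L.J ≤ cl s L.K := cl_mono s (J_sub hL)
  have hT : ∀ c < L.mc, T s L c ∈ cl s L.K := fun c hc => wp_mem_cl s (word_letters hL hc)
  let f : Fin L.mc × cl s L.J → cl s L.K := fun p =>
    ⟨p.2.1 * T s L p.1.1, Subgroup.mul_mem _ (hle p.2.2) (hT _ p.1.2)⟩
  have hf : Function.Surjective f := by
    rintro ⟨g, hg⟩
    obtain ⟨c, hc, hgc⟩ := cover hL hrel hinv hg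
    refine ⟨(⟨c, hc⟩, ⟨_, hgc⟩), ?_⟩
    apply Subtype.ext
    simp [f]
  refine ⟨Finite.of_surjective f hf, ?_⟩
  calc Nat.card (cl s L.K) ≤ Nat.card (Fin L.mc × cl s L.J) := Nat.card_le_card_of_surjective f hf
    _ = L.mc * Nat.card (cl s L.J) := by rw [Nat.card_prod, Nat.card_fin]

end Cards

section Lower

variable {G : Type*} [Group G] {s : ℕ → G} {N : ℕ} (ρ : G →* Equiv.Perm (Fin N)) {sg : ℕ → ℕ → ℕ}
variable {L : Lvl} {mF : ℕ → ℕ → ℕ}

/-- The action of the inverse of the product of a word on a point, from the table. -/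
theorem inv_wp_apply {K : List ℕ} (hs : ∀ j ∈ K, ∀ y : Fin N, ((ρ (s j)) y).val = sg j y.val)
    (hinv : ∀ j ∈ K, s j * s j = 1) (w : List ℕ) (hw : ∀ j ∈ w, j ∈ K) (y : Fin N) :
    ((ρ (wp s w))⁻¹ y).val = vec sg y.val w := by
  induction w generalizing y with
  | nil => simp [vec_nil]
  | cons j w ih =>
    have hj : j ∈ K := hw j (by simp)
    rw [wp_cons, vec_cons, map_mul, mul_inv_rev, Equiv.Perm.mul_apply,
      ih (fun a ha => hw a (by simp [ha]))]
    congr 1
    have hi : (ρ (s j))⁻¹ = ρ (s j) := by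
      rw [← map_inv, inv_eq_of_mul_eq_one_left (hinv j hj)]
    rw [hi, hs j hj]

theorem card_ge (hL : tableOK L mF = true) (hO : orbitOK L sg = true) (hx : L.x < N)
    (hs : ∀ j ∈ L.K, ∀ y : Fin N, ((ρ (s j)) y).val = sg j y.val)
    (hinv : ∀ j ∈ L.K, s j * s j = 1) :
    L.mc * Nat.card ((cl s L.J).map ρ) ≤ Nat.card ((cl s L.K).map ρ) := by
  classical
  simp only [orbitOK, Bool.and_eq_true, lall_eq, List.all_eq_true, lmap_eq] at hO
  have hfix : ∀ a ∈ (cl s L.J).map ρ, a ⟨L.x, hx⟩ = ⟨L.x, hx⟩ := by
    rintro a ⟨g, hg, rfl⟩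
    rw [SetLike.mem_coe, cl] at hg
    induction hg using Subgroup.closure_induction with
    | mem y hy =>
      obtain ⟨j, hj, rfl⟩ := hy
      apply Fin.ext
      rw [hs j (J_sub hL j hj)]
      simpa using hO.1 j hj
    | one => simp
    | mul a b _ _ iha ihb => rw [map_mul, Equiv.Perm.mul_apply, ihb, iha]
    | inv a _ iha =>
      rw [map_inv, Equiv.Perm.inv_eq_iff_eq]
      exact iha.symm
  have hle : (cl s L.J).map ρ ≤ (cl s L.K).map ρ := Subgroup.map_mono (cl_mono s (J_sub hL))
  have hT : ∀ c < L.mc, ρ (T s L c) ∈ (cl s L.K).map ρ := fun c hc =>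
    Subgroup.mem_map_of_mem _ (wp_mem_cl s (word_letters hL hc))
  let f : Fin L.mc × (cl s L.J).map ρ → (cl s L.K).map ρ := fun p =>
    ⟨p.2.1 * ρ (T s L p.1.1), Subgroup.mul_mem _ (hle p.2.2) (hT _ p.1.2)⟩
  have hvec : ∀ (c : Fin L.mc) (a : (cl s L.J).map ρ),
      (((f (c, a)).1)⁻¹ ⟨L.x, hx⟩).val = vec sg L.x (L.word c.1) := by
    intro c a
    have h1 : ((f (c, a)).1)⁻¹ = (ρ (T s L c.1))⁻¹ * (a.1)⁻¹ := by
      simp [f]
    rw [h1, Equiv.Perm.mul_apply]
    have h2 : (a.1)⁻¹ ⟨L.x, hx⟩ = ⟨L.x, hx⟩ := by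
      rw [Equiv.Perm.inv_eq_iff_eq]
      exact (hfix _ a.2).symm
    rw [h2, T, inv_wp_apply ρ hs hinv _ (word_letters hL c.2)]
  have hf : Function.Injective f := by
    rintro ⟨c, a⟩ ⟨c', a'⟩ h
    have hv : vec sg L.x (L.word c.1) = vec sg L.x (L.word c'.1) := by
      rw [← hvec c a, ← hvec c' a', h]
    have hnd := distinctB_sound _ hO.2
    have hcc : c = c' := by
      apply Fin.ext
      have := List.inj_on_of_nodup_map hnd (x := c.1) (y := c'.1)
        (List.mem_range.2 c.2) (List.mem_range.2 c'.2) hv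
      exact this
    subst hcc
    have : a.1 * ρ (T s L c.1) = a'.1 * ρ (T s L c.1) := congrArg Subtype.val h
    have h3 : a = a' := Subtype.ext (mul_right_cancel this)
    rw [h3]
  calc L.mc * Nat.card ((cl s L.J).map ρ) = Nat.card (Fin L.mc × (cl s L.J).map ρ) := by
        rw [Nat.card_prod, Nat.card_fin]
    _ ≤ Nat.card ((cl s L.K).map ρ) := Nat.card_le_card_of_injective f hf

end Lower

section Good

variable {G : Type*} [Group G] {N : ℕ}

/-- The conclusion of the chain up to the subgroup generated by `J`. -/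
structure Good (s : ℕ → G) (ρ : G →* Equiv.Perm (Fin N)) (J : List ℕ) (P : ℕ) : Prop where
  fin : Finite (cl s J)
  card : Nat.card (cl s J) = P
  cardm : Nat.card ((cl s J).map ρ) = P

variable {s : ℕ → G} {ρ : G →* Equiv.Perm (Fin N)} {sg : ℕ → ℕ → ℕ} {L : Lvl} {mF : ℕ → ℕ → ℕ}

theorem good_nil : Good s ρ [] 1 := by
  have h : cl s [] = ⊥ := cl_nil s
  refine ⟨?_, ?_, ?_⟩
  · rw [h]; infer_instance
  · rw [h]; simp
  · rw [h, Subgroup.map_bot]; simp

theorem Good.step {P : ℕ} (hg : Good s ρ L.J P) (hL : tableOK L mF = true) (hO : orbitOK L sg = true)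
    (hx : L.x < N)
    (hrel : ∀ a ∈ L.K, ∀ b ∈ L.K, 1 ≤ mF a b ∧ (s a * s b) ^ mF a b = 1)
    (hinv : ∀ a ∈ L.K, s a * s a = 1)
    (hs : ∀ j ∈ L.K, ∀ y : Fin N, ((ρ (s j)) y).val = sg j y.val) :
    Good s ρ L.K (L.mc * P) := by
  have := hg.fin
  obtain ⟨hfin, hle⟩ := card_le (s := s) hL hrel hinv
  have hge := card_ge ρ hL hO hx hs hinv
  rw [hg.card] at hle
  rw [hg.cardm] at hge
  have hmap : Nat.card ((cl s L.K).map ρ) ≤ Nat.card (cl s L.K) := by
    apply Nat.card_le_card_of_surjective (fun g : cl s L.K =>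
      (⟨ρ g.1, Subgroup.mem_map_of_mem _ g.2⟩ : (cl s L.K).map ρ))
    rintro ⟨y, g, hg', rfl⟩
    exact ⟨⟨g, hg'⟩, rfl⟩
  exact ⟨hfin, le_antisymm hle (hge.trans hmap), le_antisymm (hmap.trans hle) hge⟩

/-- If the list generates the group, the group has order `P` and the representation is faithful. -/
theorem Good.final {l : List ℕ} {P : ℕ} (hg : Good s ρ l P) (htop : cl s l = ⊤) :
    Finite G ∧ Nat.card G = P ∧ Function.Injective ρ := by
  have h1 := hg.fin
  have h2 := hg.card
  have h3 := hg.cardm
  rw [htop] at h1 h2 h3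
  have : Finite G := Finite.of_equiv _ Subgroup.topEquiv.toEquiv
  have hG : Nat.card G = P := by
    rw [← h2]
    exact (Nat.card_congr Subgroup.topEquiv.toEquiv).symm
  refine ⟨inferInstance, hG, ?_⟩
  have hr : Nat.card ρ.range = P := by
    rw [← h3, MonoidHom.range_eq_map]
  have hs : Function.Surjective ρ.rangeRestrict := MonoidHom.rangeRestrict_surjective ρ
  have hb := (Nat.bijective_iff_surjective_and_card ρ.rangeRestrict).2 ⟨hs, by rw [hG, hr]⟩
  intro a b hab
  apply hb.1
  exact Subtype.ext hab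

end Good

section Coxeter

variable {n : ℕ} (M : CoxeterMatrix (Fin n))

/-- The generators, indexed by natural numbers. -/
def sC (j : ℕ) : M.Group := if h : j < n then M.simple ⟨j, h⟩ else 1

theorem sC_of_lt {j : ℕ} (h : j < n) : sC M j = M.simple ⟨j, h⟩ := dif_pos h

theorem sC_fin (j : Fin n) : sC M j.1 = M.simple j := dif_pos j.2

theorem simple_mul_self (i : Fin n) : M.simple i * M.simple i = 1 :=
  M.toCoxeterSystem.simple_mul_simple_self i

theorem simple_rel (i i' : Fin n) : (M.simple i * M.simple i') ^ M i i' = 1 :=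
  M.toCoxeterSystem.simple_mul_simple_pow i i'

theorem sC_inv (j : ℕ) : sC M j * sC M j = 1 := by
  by_cases h : j < n
  · rw [sC_of_lt M h]; exact simple_mul_self M _
  · rw [sC, dif_neg h]; simp

theorem cl_range : cl (sC M) (List.range n) = ⊤ := by
  rw [eq_top_iff, ← M.toCoxeterSystem.subgroup_closure_range_simple, cl]
  apply Subgroup.closure_mono
  rintro g ⟨i, rfl⟩
  exact ⟨i.1, List.mem_range.2 i.2, (sC_fin M i).symm⟩

/-- Iterate a function, for the kernel. -/
def iter (k : ℕ) (f : ℕ → ℕ) (x : ℕ) : ℕ := (Nat.rec (fun y => y) (fun _ ih y => ih (f y)) k : ℕ → ℕ) x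

theorem iter_zero (f : ℕ → ℕ) (x : ℕ) : iter 0 f x = x := rfl
theorem iter_succ (k : ℕ) (f : ℕ → ℕ) (x : ℕ) : iter (k + 1) f x = iter k f (f x) := rfl

/-- The table of a permutation representation satisfies the relations. -/
def permOK (n N : ℕ) (mF : ℕ → ℕ → ℕ) (sg : ℕ → ℕ → ℕ) : Bool :=
  and (lall (fun i => lall (fun x => and (Nat.blt (sg i x) N) (Nat.beq (sg i (sg i x)) x)) (List.range N)) (List.range n)) <|
  lall (fun i => lall (fun i' => lall (fun x => Nat.beq (iter (mF i i') (fun y => sg i (sg i' y)) x) x)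
    (List.range N)) (List.range n)) (List.range n)

theorem hM_of_check {mF : ℕ → ℕ → ℕ} (h : (List.finRange n).all (fun i => (List.finRange n).all fun j =>
    Nat.beq (M i j) (mF i j)) = true) (i j : Fin n) : M i j = mF i j := by
  simp only [List.all_eq_true, List.mem_finRange, true_imp_iff] at h
  exact Nat.eq_of_beq_eq_true (h i j)

/-- The exponents of the table are positive. -/
def mposOK (n : ℕ) (mF : ℕ → ℕ → ℕ) : Bool :=
  lall (fun i => lall (fun i' => Nat.blt 0 (mF i i')) (List.range n)) (List.range n)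

variable {N : ℕ} {mF : ℕ → ℕ → ℕ} {sg : ℕ → ℕ → ℕ}

/-- The permutation of a generator. -/
def permOf (hP : permOK n N mF sg = true) (i : Fin n) : Equiv.Perm (Fin N) :=
  have h1 : ∀ (y : Fin N), sg i y < N ∧ sg i (sg i y) = y := by
    intro y
    simp only [permOK, Bool.and_eq_true, lall_eq, List.all_eq_true, List.mem_range] at hP
    have := hP.1 i i.2 y y.2
    simpa using this
  { toFun := fun y => ⟨sg i y, (h1 y).1⟩
    invFun := fun y => ⟨sg i y, (h1 y).1⟩
    left_inv := fun y => Fin.ext (h1 y).2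
    right_inv := fun y => Fin.ext (h1 y).2 }

theorem permOf_val (hP : permOK n N mF sg = true) (i : Fin n) (y : Fin N) :
    (permOf hP i y).val = sg i y := rfl

theorem permOf_rel (hP : permOK n N mF sg = true) (hM : ∀ i j : Fin n, M i j = mF i j) (i i' : Fin n) :
    (permOf hP i * permOf hP i') ^ M i i' = 1 := by
  have key : ∀ (k : ℕ) (y : Fin N), (((permOf hP i * permOf hP i') ^ k) y).val =
      iter k (fun z => sg i (sg i' z)) y.val := by
    intro k
    induction k with
    | zero => intro y; rfl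
    | succ k ih =>
      intro y
      rw [pow_succ, Equiv.Perm.mul_apply, ih, iter_succ]
      rfl
  ext y
  rw [key, hM]
  simp only [permOK, Bool.and_eq_true, lall_eq, List.all_eq_true, List.mem_range] at hP
  have := hP.2 i i.2 i' i'.2 y y.2
  simpa using this

/-- The permutation representation. -/
def rhoOf (hP : permOK n N mF sg = true) (hM : ∀ i j : Fin n, M i j = mF i j) :
    M.Group →* Equiv.Perm (Fin N) :=
  M.toCoxeterSystem.lift ⟨permOf hP, fun i i' => permOf_rel M hP hM i i'⟩

theorem rhoOf_simple (hP : permOK n N mF sg = true) (hM : ∀ i j : Fin n, M i j = mF i j) (i : Fin n) :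
    rhoOf M hP hM (M.simple i) = permOf hP i :=
  M.toCoxeterSystem.lift_apply_simple _ i

theorem rhoOf_sC (hP : permOK n N mF sg = true) (hM : ∀ i j : Fin n, M i j = mF i j) {j : ℕ} (hj : j < n)
    (y : Fin N) : ((rhoOf M hP hM (sC M j)) y).val = sg j y.val := by
  rw [sC_of_lt M hj, rhoOf_simple]
  rfl

theorem relC (hM : ∀ i j : Fin n, M i j = mF i j) (hpos : ∀ a < n, ∀ b < n, 1 ≤ mF a b) {a b : ℕ} (ha : a < n) (hb : b < n) :
    1 ≤ mF a b ∧ (sC M a * sC M b) ^ mF a b = 1 := by
  refine ⟨hpos a ha b hb, ?_⟩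
  rw [sC_of_lt M ha, sC_of_lt M hb]
  have := simple_rel M ⟨a, ha⟩ ⟨b, hb⟩
  rwa [hM] at this

/-- One step of the chain for a Coxeter group. -/
theorem goodC_step (hP : permOK n N mF sg = true) (hM : ∀ i j : Fin n, M i j = mF i j) {L : Lvl} {P : ℕ}
    (hg : Good (sC M) (rhoOf M hP hM) L.J P) (hpos : mposOK n mF = true)
    (hkn : lall (fun j => Nat.blt j n) L.K = true)
    (hL : tableOK L mF = true) (hO : orbitOK L sg = true) (hx : L.x < N) :
    Good (sC M) (rhoOf M hP hM) L.K (L.mc * P) := by
  have hK : ∀ j ∈ L.K, j < n := by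
    simp only [lall_eq, List.all_eq_true] at hkn
    intro j hj
    simpa using hkn j hj
  have hM' : ∀ a < n, ∀ b < n, 1 ≤ mF a b := by
    simp only [mposOK, lall_eq, List.all_eq_true, List.mem_range] at hpos
    intro a ha b hb
    have h := hpos a ha b hb
    simp only [Nat.blt_eq] at h
    exact h
  exact hg.step hL hO hx (fun a ha b hb => relC M hM hM' (hK a ha) (hK b hb))
    (fun a _ => sC_inv M a) (fun j hj y => rhoOf_sC M hP hM (hK j hj) y)

end Coxeter

end

end Cfsg.Agent.Lib.Chevalley.Weyl
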