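import Cfsg.Agent.Lib.Chevalley.Weyl.Center

/-!
# Generating sets of a Coxeter group from words, using a faithful representation
-/

set_option autoImplicit false

namespace Cfsg.Agent.Lib.Chevalley.Weyl

open Cfsg.Agent.Lib.Chevalley.Reflect

noncomputable section

variable {n N : ℕ} {M : CoxeterMatrix (Fin n)} {mF : ℕ → ℕ → ℕ} {sg : ℕ → ℕ → ℕ}
variable {hP : permOK n N mF sg = true} {hM : ∀ i j : Fin n, M i j = mF i j}

/-- Equality of group elements from the table, when the representation is faithful. -/
theorem wp_eq_of_check (hinj : Function.Injective (rhoOf M hP hM)) {w w' : List ℕ}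
    (hw : ∀ j ∈ w, j < n) (hw' : ∀ j ∈ w', j < n)
    (h : lall (fun y => Nat.beq (appl sg w y) (appl sg w' y)) (List.range N) = true) :
    wp (sC M) w = wp (sC M) w' := by
  apply hinj
  ext y
  rw [rho_wp M hP hM hw, rho_wp M hP hM hw']
  simp only [lall_eq, List.all_eq_true, List.mem_range] at h
  simpa using h y y.2

/-- Two generators with different actions on a point are different. -/
theorem simple_ne_of_check (hP' : permOK n N mF sg = true) (hM' : ∀ i j : Fin n, M i j = mF i j)
    (i i' : Fin n) (y0 : ℕ) (hy0 : y0 < N)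
    (h : Nat.beq (sg i y0) (sg i' y0) = false) : M.simple i ≠ M.simple i' := by
  intro he
  have h1 := congrArg (fun g => ((rhoOf M hP' hM' g) ⟨y0, hy0⟩).val) he
  simp only [rhoOf_simple, permOf_val] at h1
  rw [h1] at h
  simp at h

theorem wp_reverse (w : List ℕ) : wp (sC M) w.reverse = (wp (sC M) w)⁻¹ := by
  induction w with
  | nil => simp
  | cons j w ih =>
    have : (sC M j)⁻¹ = sC M j := inv_eq_of_mul_eq_one_left (sC_inv M j)
    rw [List.reverse_cons, wp_append, ih, wp_cons _ j [], wp_nil, mul_one, wp_cons _ j w, mul_inv_rev, this]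

/-- A subgroup containing the words of the letters and, through them, all the generators, is everything. -/
theorem eq_top_of_words (hinj : Function.Injective (rhoOf M hP hM)) {A : Subgroup M.Group}
    (lw : ℕ → List ℕ) (letters : List ℕ)
    (hA : ∀ a ∈ letters, wp (sC M) (lw a) ∈ A)
    (hlw : ∀ a ∈ letters, ∀ j ∈ lw a, j < n)
    (wd : ℕ → List ℕ) (hwd : ∀ j < n, ∀ a ∈ wd j, a ∈ letters)
    (hch : lall (fun j => lall (fun y => Nat.beq (appl sg (lflat lw (wd j)) y) (appl sg [j] y)) (List.range N))
      (List.range n) = true) : A = ⊤ := by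
  have hmem : ∀ w : List ℕ, (∀ a ∈ w, a ∈ letters) → wp (sC M) (lflat lw w) ∈ A := by
    intro w hw
    induction w with
    | nil => exact Subgroup.one_mem _
    | cons a w ih =>
      have : lflat lw (a :: w) = lw a ++ lflat lw w := by
        rw [lflat_eq, lflat_eq, List.flatMap_cons]
      rw [this, wp_append]
      exact Subgroup.mul_mem _ (hA a (hw a (by simp))) (ih fun b hb => hw b (by simp [hb]))
  have hlet : ∀ w : List ℕ, (∀ a ∈ w, a ∈ letters) → ∀ j ∈ lflat lw w, j < n := by
    intro w hw j hj
    rw [lflat_eq, List.mem_flatMap] at hj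
    obtain ⟨a, ha, hj⟩ := hj
    exact hlw a (hw a ha) j hj
  simp only [lall_eq, List.all_eq_true, List.mem_range] at hch
  have hs : ∀ j (hj : j < n), M.simple ⟨j, hj⟩ ∈ A := by
    intro j hj
    have h1 : wp (sC M) (lflat lw (wd j)) = wp (sC M) [j] := by
      apply wp_eq_of_check hinj (hlet _ (hwd j hj)) (by simpa using hj)
      rw [lall_eq, List.all_eq_true]
      intro y hy
      exact hch j hj y (List.mem_range.1 hy)
    have h2 := hmem _ (hwd j hj)
    rw [h1] at h2
    simp only [wp_cons, wp_nil, mul_one, sC_of_lt M hj] at h2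
    exact h2
  rw [eq_top_iff, ← M.toCoxeterSystem.subgroup_closure_range_simple, Subgroup.closure_le]
  rintro g ⟨i, rfl⟩
  exact hs i.1 i.2

/-- The form used for the statement on the Coxeter element and one or two reflections. -/
theorem closure_cox_eq_top (hinj : Function.Injective (rhoOf M hP hM)) (T : Set M.Group)
    (lw : ℕ → List ℕ) (letters : List ℕ)
    (hL : ∀ a ∈ letters, lw a = List.range n ∨ lw a = (List.range n).reverse ∨ ∃ g ∈ T, wp (sC M) (lw a) = g)
    (hlw : ∀ a ∈ letters, ∀ j ∈ lw a, j < n)
    (wd : ℕ → List ℕ) (hwd : ∀ j < n, ∀ a ∈ wd j, a ∈ letters)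
    (hch : lall (fun j => lall (fun y => Nat.beq (appl sg (lflat lw (wd j)) y) (appl sg [j] y)) (List.range N))
      (List.range n) = true) :
    Subgroup.closure (({((List.finRange n).map M.simple).prod} : Set M.Group) ∪ T) = ⊤ := by
  refine eq_top_of_words hinj lw letters ?_ hlw wd hwd hch
  intro a ha
  have hc : wp (sC M) (List.range n) ∈
      Subgroup.closure (({((List.finRange n).map M.simple).prod} : Set M.Group) ∪ T) := by
    rw [← cox_eq]
    exact Subgroup.subset_closure (Or.inl rfl)
  rcases hL a ha with h | h | ⟨g, hg, h⟩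
  · rw [h]; exact hc
  · rw [h, wp_reverse]; exact Subgroup.inv_mem _ hc
  · rw [h]; exact Subgroup.subset_closure (Or.inr hg)

end

end Cfsg.Agent.Lib.Chevalley.Weyl
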