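import Cfsg.Agent.Lib.Chevalley.Weyl.GenWords
import Cfsg.Agent.Lib.Chevalley.Weyl.G2
import Cfsg.Agent.Lib.Chevalley.Weyl.B2
import Cfsg.Agent.Lib.Chevalley.Weyl.D4
import Cfsg.Agent.Lib.Chevalley.Weyl.F4
import Cfsg.Agent.Lib.Chevalley.Weyl.E6
import Cfsg.Agent.Lib.Chevalley.Weyl.E7
import Cfsg.Agent.Lib.Chevalley.Weyl.E8

/-! Generated: the Coxeter element and one or two reflections generate. -/

set_option autoImplicit false
set_option maxRecDepth 1000000

namespace Cfsg.Agent.Lib.Chevalley.Weyl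

open Cfsg.Agent.Lib.Chevalley.Reflect

noncomputable section

namespace G2

def lwT : Tr (List ℕ) := (.node 1 [1, 0] (.node 0 [0, 1] .nil .nil) (.node 2 [0] .nil .nil))
def lw (a : ℕ) : List ℕ := Tr.find [] lwT a
def wdT : Tr (List ℕ) := (.node 1 [2, 0] (.node 0 [2] .nil .nil) .nil)
def wd (j : ℕ) : List ℕ := Tr.find [] wdT j

theorem gens : ∃ T : Finset Mx.Group, T.card = 1 ∧ (∀ t ∈ T, ∃ (g : Mx.Group) (i : Fin 2), t = g * Mx.simple i * g⁻¹) ∧
      Subgroup.closure (({((List.finRange 2).map Mx.simple).prod} : Set Mx.Group) ∪ ↑T) = ⊤ := by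
  classical
  refine ⟨{Mx.simple ⟨0, by decide⟩}, Finset.card_singleton _, ?_, ?_⟩
  · intro t ht
    rw [Finset.mem_singleton] at ht
    exact ⟨1, ⟨0, by decide⟩, by rw [ht]; simp⟩
  · refine closure_cox_eq_top main.2.2 _ lw [0, 1, 2] ?_ ?_ wd ?_ ?_
    · intro a ha
      simp only [List.mem_cons, List.not_mem_nil, or_false] at ha
      rcases ha with rfl | rfl | rfl
      · exact Or.inl (by decide +kernel)
      · exact Or.inr (Or.inl (by decide +kernel))
      · refine Or.inr (Or.inr ⟨Mx.simple ⟨0, by decide⟩, by simp, ?_⟩)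
        show wp (sC Mx) [0] = _
        simp only [wp_cons, wp_nil, mul_one]
        exact sC_of_lt Mx (by decide)
    · have h : lall (fun a => lall (fun j => Nat.blt j 2) (lw a)) [0, 1, 2] = true := by decide +kernel
      simp only [lall_eq, List.all_eq_true] at h
      intro a ha j hj
      simpa using h a ha j hj
    · have h : lall (fun j => lall (fun a => Weyl.lmem a [0, 1, 2]) (wd j)) (List.range 2) = true := by decide +kernel
      simp only [lall_eq, List.all_eq_true, List.mem_range] at h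
      intro j hj a ha
      exact (lmem_iff _ _).1 (h j hj a ha)
    · decide +kernel

end G2

namespace B2

def lwT : Tr (List ℕ) := (.node 1 [1, 0] (.node 0 [0, 1] .nil .nil) (.node 2 [0] .nil .nil))
def lw (a : ℕ) : List ℕ := Tr.find [] lwT a
def wdT : Tr (List ℕ) := (.node 1 [2, 0] (.node 0 [2] .nil .nil) .nil)
def wd (j : ℕ) : List ℕ := Tr.find [] wdT j

theorem gens : ∃ T : Finset Mx.Group, T.card = 1 ∧ (∀ t ∈ T, ∃ (g : Mx.Group) (i : Fin 2), t = g * Mx.simple i * g⁻¹) ∧
      Subgroup.closure (({((List.finRange 2).map Mx.simple).prod} : Set Mx.Group) ∪ ↑T) = ⊤ := by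
  classical
  refine ⟨{Mx.simple ⟨0, by decide⟩}, Finset.card_singleton _, ?_, ?_⟩
  · intro t ht
    rw [Finset.mem_singleton] at ht
    exact ⟨1, ⟨0, by decide⟩, by rw [ht]; simp⟩
  · refine closure_cox_eq_top main.2.2 _ lw [0, 1, 2] ?_ ?_ wd ?_ ?_
    · intro a ha
      simp only [List.mem_cons, List.not_mem_nil, or_false] at ha
      rcases ha with rfl | rfl | rfl
      · exact Or.inl (by decide +kernel)
      · exact Or.inr (Or.inl (by decide +kernel))
      · refine Or.inr (Or.inr ⟨Mx.simple ⟨0, by decide⟩, by simp, ?_⟩)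
        show wp (sC Mx) [0] = _
        simp only [wp_cons, wp_nil, mul_one]
        exact sC_of_lt Mx (by decide)
    · have h : lall (fun a => lall (fun j => Nat.blt j 2) (lw a)) [0, 1, 2] = true := by decide +kernel
      simp only [lall_eq, List.all_eq_true] at h
      intro a ha j hj
      simpa using h a ha j hj
    · have h : lall (fun j => lall (fun a => Weyl.lmem a [0, 1, 2]) (wd j)) (List.range 2) = true := by decide +kernel
      simp only [lall_eq, List.all_eq_true, List.mem_range] at h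
      intro j hj a ha
      exact (lmem_iff _ _).1 (h j hj a ha)
    · decide +kernel

end B2

namespace D4

def lwT : Tr (List ℕ) := (.node 2 [0] (.node 1 [3, 2, 1, 0] (.node 0 [0, 1, 2, 3] .nil .nil) .nil) (.node 3 [2] .nil .nil))
def lw (a : ℕ) : List ℕ := Tr.find [] lwT a
def wdT : Tr (List ℕ) := (.node 2 [3] (.node 1 [0, 2, 1] (.node 0 [2] .nil .nil) .nil) (.node 3 [0, 3, 0, 2, 1, 3, 1] .nil .nil))
def wd (j : ℕ) : List ℕ := Tr.find [] wdT j

theorem gens : ∃ T : Finset Mx.Group, T.card = 2 ∧ (∀ t ∈ T, ∃ (g : Mx.Group) (i : Fin 4), t = g * Mx.simple i * g⁻¹) ∧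
      Subgroup.closure (({((List.finRange 4).map Mx.simple).prod} : Set Mx.Group) ∪ ↑T) = ⊤ := by
  classical
  refine ⟨{Mx.simple ⟨0, by decide⟩, Mx.simple ⟨2, by decide⟩}, ?_, ?_, ?_⟩
  · apply Finset.card_pair
    exact simple_ne_of_check hP hM _ _ 1 (by decide) (by decide +kernel)
  · intro t ht
    simp only [Finset.mem_insert, Finset.mem_singleton] at ht
    rcases ht with ht | ht
    · exact ⟨1, ⟨0, by decide⟩, by rw [ht]; simp⟩
    · exact ⟨1, ⟨2, by decide⟩, by rw [ht]; simp⟩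
  · refine closure_cox_eq_top main.2.2 _ lw [0, 1, 2, 3] ?_ ?_ wd ?_ ?_
    · intro a ha
      simp only [List.mem_cons, List.not_mem_nil, or_false] at ha
      rcases ha with rfl | rfl | rfl | rfl
      · exact Or.inl (by decide +kernel)
      · exact Or.inr (Or.inl (by decide +kernel))
      · refine Or.inr (Or.inr ⟨Mx.simple ⟨0, by decide⟩, by simp, ?_⟩)
        show wp (sC Mx) [0] = _
        simp only [wp_cons, wp_nil, mul_one]
        exact sC_of_lt Mx (by decide)
      · refine Or.inr (Or.inr ⟨Mx.simple ⟨2, by decide⟩, by simp, ?_⟩)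
        show wp (sC Mx) [2] = _
        simp only [wp_cons, wp_nil, mul_one]
        exact sC_of_lt Mx (by decide)
    · have h : lall (fun a => lall (fun j => Nat.blt j 4) (lw a)) [0, 1, 2, 3] = true := by decide +kernel
      simp only [lall_eq, List.all_eq_true] at h
      intro a ha j hj
      simpa using h a ha j hj
    · have h : lall (fun j => lall (fun a => Weyl.lmem a [0, 1, 2, 3]) (wd j)) (List.range 4) = true := by decide +kernel
      simp only [lall_eq, List.all_eq_true, List.mem_range] at h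
      intro j hj a ha
      exact (lmem_iff _ _).1 (h j hj a ha)
    · decide +kernel

end D4

namespace F4

def lwT : Tr (List ℕ) := (.node 2 [0] (.node 1 [3, 2, 1, 0] (.node 0 [0, 1, 2, 3] .nil .nil) .nil) (.node 3 [2] .nil .nil))
def lw (a : ℕ) : List ℕ := Tr.find [] lwT a
def wdT : Tr (List ℕ) := (.node 2 [3] (.node 1 [0, 2, 1] (.node 0 [2] .nil .nil) .nil) (.node 3 [0, 3, 1] .nil .nil))
def wd (j : ℕ) : List ℕ := Tr.find [] wdT j

theorem gens : ∃ T : Finset Mx.Group, T.card = 2 ∧ (∀ t ∈ T, ∃ (g : Mx.Group) (i : Fin 4), t = g * Mx.simple i * g⁻¹) ∧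
      Subgroup.closure (({((List.finRange 4).map Mx.simple).prod} : Set Mx.Group) ∪ ↑T) = ⊤ := by
  classical
  refine ⟨{Mx.simple ⟨0, by decide⟩, Mx.simple ⟨2, by decide⟩}, ?_, ?_, ?_⟩
  · apply Finset.card_pair
    exact simple_ne_of_check hP hM _ _ 1 (by decide) (by decide +kernel)
  · intro t ht
    simp only [Finset.mem_insert, Finset.mem_singleton] at ht
    rcases ht with ht | ht
    · exact ⟨1, ⟨0, by decide⟩, by rw [ht]; simp⟩
    · exact ⟨1, ⟨2, by decide⟩, by rw [ht]; simp⟩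
  · refine closure_cox_eq_top main.2.2 _ lw [0, 1, 2, 3] ?_ ?_ wd ?_ ?_
    · intro a ha
      simp only [List.mem_cons, List.not_mem_nil, or_false] at ha
      rcases ha with rfl | rfl | rfl | rfl
      · exact Or.inl (by decide +kernel)
      · exact Or.inr (Or.inl (by decide +kernel))
      · refine Or.inr (Or.inr ⟨Mx.simple ⟨0, by decide⟩, by simp, ?_⟩)
        show wp (sC Mx) [0] = _
        simp only [wp_cons, wp_nil, mul_one]
        exact sC_of_lt Mx (by decide)
      · refine Or.inr (Or.inr ⟨Mx.simple ⟨2, by decide⟩, by simp, ?_⟩)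
        show wp (sC Mx) [2] = _
        simp only [wp_cons, wp_nil, mul_one]
        exact sC_of_lt Mx (by decide)
    · have h : lall (fun a => lall (fun j => Nat.blt j 4) (lw a)) [0, 1, 2, 3] = true := by decide +kernel
      simp only [lall_eq, List.all_eq_true] at h
      intro a ha j hj
      simpa using h a ha j hj
    · have h : lall (fun j => lall (fun a => Weyl.lmem a [0, 1, 2, 3]) (wd j)) (List.range 4) = true := by decide +kernel
      simp only [lall_eq, List.all_eq_true, List.mem_range] at h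
      intro j hj a ha
      exact (lmem_iff _ _).1 (h j hj a ha)
    · decide +kernel

end F4

namespace E6

def lwT : Tr (List ℕ) := (.node 1 [5, 4, 3, 2, 1, 0] (.node 0 [0, 1, 2, 3, 4, 5] .nil .nil) (.node 2 [0] .nil .nil))
def lw (a : ℕ) : List ℕ := Tr.find [] lwT a
def wdT : Tr (List ℕ) := (.node 3 [0, 0, 0, 0, 0, 2, 1, 1, 1, 1, 1] (.node 1 [1, 2, 1, 1, 1, 2, 0, 0, 0, 2, 0] (.node 0 [2] .nil .nil) (.node 2 [0, 2, 1] .nil .nil)) (.node 5 [1, 1, 1, 1, 1, 2, 0, 0, 0, 0, 0] (.node 4 [0, 0, 0, 0, 0, 0, 2, 1, 1, 1, 1, 1, 1] .nil .nil) .nil))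
def wd (j : ℕ) : List ℕ := Tr.find [] wdT j

theorem gens : ∃ T : Finset Mx.Group, T.card = 1 ∧ (∀ t ∈ T, ∃ (g : Mx.Group) (i : Fin 6), t = g * Mx.simple i * g⁻¹) ∧
      Subgroup.closure (({((List.finRange 6).map Mx.simple).prod} : Set Mx.Group) ∪ ↑T) = ⊤ := by
  classical
  refine ⟨{Mx.simple ⟨0, by decide⟩}, Finset.card_singleton _, ?_, ?_⟩
  · intro t ht
    rw [Finset.mem_singleton] at ht
    exact ⟨1, ⟨0, by decide⟩, by rw [ht]; simp⟩
  · refine closure_cox_eq_top main.2.2 _ lw [0, 1, 2] ?_ ?_ wd ?_ ?_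
    · intro a ha
      simp only [List.mem_cons, List.not_mem_nil, or_false] at ha
      rcases ha with rfl | rfl | rfl
      · exact Or.inl (by decide +kernel)
      · exact Or.inr (Or.inl (by decide +kernel))
      · refine Or.inr (Or.inr ⟨Mx.simple ⟨0, by decide⟩, by simp, ?_⟩)
        show wp (sC Mx) [0] = _
        simp only [wp_cons, wp_nil, mul_one]
        exact sC_of_lt Mx (by decide)
    · have h : lall (fun a => lall (fun j => Nat.blt j 6) (lw a)) [0, 1, 2] = true := by decide +kernel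
      simp only [lall_eq, List.all_eq_true] at h
      intro a ha j hj
      simpa using h a ha j hj
    · have h : lall (fun j => lall (fun a => Weyl.lmem a [0, 1, 2]) (wd j)) (List.range 6) = true := by decide +kernel
      simp only [lall_eq, List.all_eq_true, List.mem_range] at h
      intro j hj a ha
      exact (lmem_iff _ _).1 (h j hj a ha)
    · decide +kernel

end E6

namespace E7

def lwT : Tr (List ℕ) := (.node 1 [6, 5, 4, 3, 2, 1, 0] (.node 0 [0, 1, 2, 3, 4, 5, 6] .nil .nil) (.node 2 [1] .nil .nil))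
def lw (a : ℕ) : List ℕ := Tr.find [] lwT a
def wdT : Tr (List ℕ) := (.node 3 [2, 1, 1, 2, 1, 1, 2, 0, 0, 2, 0, 0, 2] (.node 1 [2] (.node 0 [0, 0, 0, 2, 0, 0, 2, 1, 1, 2, 1, 1, 1] .nil .nil) (.node 2 [1, 1, 1, 2, 1, 1, 2, 0, 0, 2, 0, 0, 0] .nil .nil)) (.node 5 [1, 1, 2, 0, 0, 2, 0, 0, 2, 1, 1, 2, 1, 1, 2, 0, 0] (.node 4 [0, 2, 1, 1, 2, 1, 1, 2, 0, 0, 2, 0, 0, 2, 1] .nil .nil) (.node 6 [1, 2, 0, 0, 2, 0, 0, 2, 1, 1, 2, 1, 1, 2, 0] .nil .nil)))
def wd (j : ℕ) : List ℕ := Tr.find [] wdT j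

theorem gens : ∃ T : Finset Mx.Group, T.card = 1 ∧ (∀ t ∈ T, ∃ (g : Mx.Group) (i : Fin 7), t = g * Mx.simple i * g⁻¹) ∧
      Subgroup.closure (({((List.finRange 7).map Mx.simple).prod} : Set Mx.Group) ∪ ↑T) = ⊤ := by
  classical
  refine ⟨{Mx.simple ⟨1, by decide⟩}, Finset.card_singleton _, ?_, ?_⟩
  · intro t ht
    rw [Finset.mem_singleton] at ht
    exact ⟨1, ⟨1, by decide⟩, by rw [ht]; simp⟩
  · refine closure_cox_eq_top main.2.2 _ lw [0, 1, 2] ?_ ?_ wd ?_ ?_
    · intro a ha
      simp only [List.mem_cons, List.not_mem_nil, or_false] at ha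
      rcases ha with rfl | rfl | rfl
      · exact Or.inl (by decide +kernel)
      · exact Or.inr (Or.inl (by decide +kernel))
      · refine Or.inr (Or.inr ⟨Mx.simple ⟨1, by decide⟩, by simp, ?_⟩)
        show wp (sC Mx) [1] = _
        simp only [wp_cons, wp_nil, mul_one]
        exact sC_of_lt Mx (by decide)
    · have h : lall (fun a => lall (fun j => Nat.blt j 7) (lw a)) [0, 1, 2] = true := by decide +kernel
      simp only [lall_eq, List.all_eq_true] at h
      intro a ha j hj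
      simpa using h a ha j hj
    · have h : lall (fun j => lall (fun a => Weyl.lmem a [0, 1, 2]) (wd j)) (List.range 7) = true := by decide +kernel
      simp only [lall_eq, List.all_eq_true, List.mem_range] at h
      intro j hj a ha
      exact (lmem_iff _ _).1 (h j hj a ha)
    · decide +kernel

end E7

namespace E8

def lwT : Tr (List ℕ) := (.node 1 [7, 6, 5, 4, 3, 2, 1, 0] (.node 0 [0, 1, 2, 3, 4, 5, 6, 7] .nil .nil) (.node 2 [0] .nil .nil))
def lw (a : ℕ) : List ℕ := Tr.find [] lwT a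
def wdT : Tr (List ℕ) := (.node 4 [0, 0, 0, 0, 0, 2, 0, 0, 0, 2, 1, 1, 1, 2, 1, 1, 1, 1, 1] (.node 2 [0, 2, 1] (.node 1 [1, 2, 1, 1, 2, 1, 1, 1, 2, 0, 0, 0, 2, 0, 0, 2, 0] (.node 0 [2] .nil .nil) .nil) (.node 3 [0, 0, 0, 0, 2, 0, 0, 0, 2, 1, 1, 1, 2, 1, 1, 1, 1] .nil .nil)) (.node 6 [1, 1, 1, 1, 1, 2, 1, 1, 1, 2, 0, 0, 0, 2, 0, 0, 0, 0, 0] (.node 5 [0, 0, 0, 0, 0, 0, 2, 0, 0, 0, 2, 1, 1, 1, 2, 1, 1, 1, 1, 1, 1] .nil .nil) (.node 7 [1, 1, 1, 1, 2, 1, 1, 1, 2, 0, 0, 0, 2, 0, 0, 0, 0] .nil .nil)))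
def wd (j : ℕ) : List ℕ := Tr.find [] wdT j

theorem gens : ∃ T : Finset Mx.Group, T.card = 1 ∧ (∀ t ∈ T, ∃ (g : Mx.Group) (i : Fin 8), t = g * Mx.simple i * g⁻¹) ∧
      Subgroup.closure (({((List.finRange 8).map Mx.simple).prod} : Set Mx.Group) ∪ ↑T) = ⊤ := by
  classical
  refine ⟨{Mx.simple ⟨0, by decide⟩}, Finset.card_singleton _, ?_, ?_⟩
  · intro t ht
    rw [Finset.mem_singleton] at ht
    exact ⟨1, ⟨0, by decide⟩, by rw [ht]; simp⟩
  · refine closure_cox_eq_top main.2.2 _ lw [0, 1, 2] ?_ ?_ wd ?_ ?_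
    · intro a ha
      simp only [List.mem_cons, List.not_mem_nil, or_false] at ha
      rcases ha with rfl | rfl | rfl
      · exact Or.inl (by decide +kernel)
      · exact Or.inr (Or.inl (by decide +kernel))
      · refine Or.inr (Or.inr ⟨Mx.simple ⟨0, by decide⟩, by simp, ?_⟩)
        show wp (sC Mx) [0] = _
        simp only [wp_cons, wp_nil, mul_one]
        exact sC_of_lt Mx (by decide)
    · have h : lall (fun a => lall (fun j => Nat.blt j 8) (lw a)) [0, 1, 2] = true := by decide +kernel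
      simp only [lall_eq, List.all_eq_true] at h
      intro a ha j hj
      simpa using h a ha j hj
    · have h : lall (fun j => lall (fun a => Weyl.lmem a [0, 1, 2]) (wd j)) (List.range 8) = true := by decide +kernel
      simp only [lall_eq, List.all_eq_true, List.mem_range] at h
      intro j hj a ha
      exact (lmem_iff _ _).1 (h j hj a ha)
    · decide +kernel

end E8

end

end Cfsg.Agent.Lib.Chevalley.Weyl
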