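import Cfsg.Agent.Lib.Chevalley.Weyl.Chain

/-!
# Orders of elements from a faithful permutation representation
-/

set_option autoImplicit false

namespace Cfsg.Agent.Lib.Chevalley.Weyl

open Cfsg.Agent.Lib.Chevalley.Reflect

noncomputable section

/-- The action of the product of a word, from the table. -/
def appl (sg : ℕ → ℕ → ℕ) (w : List ℕ) (x : ℕ) : ℕ := List.rec x (fun j _ ih => sg j ih) w

theorem appl_nil (sg : ℕ → ℕ → ℕ) (x : ℕ) : appl sg [] x = x := rfl
theorem appl_cons (sg : ℕ → ℕ → ℕ) (j : ℕ) (w : List ℕ) (x : ℕ) : appl sg (j :: w) x = sg j (appl sg w x) := rfl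

section

variable {n N : ℕ} (M : CoxeterMatrix (Fin n)) {mF : ℕ → ℕ → ℕ} {sg : ℕ → ℕ → ℕ}
variable (hP : permOK n N mF sg = true) (hM : ∀ i j : Fin n, M i j = mF i j)

theorem rho_wp {w : List ℕ} (hw : ∀ j ∈ w, j < n) (y : Fin N) :
    ((rhoOf M hP hM (wp (sC M) w)) y).val = appl sg w y.val := by
  induction w with
  | nil => simp [appl_nil]
  | cons j w ih =>
    rw [wp_cons, map_mul, Equiv.Perm.mul_apply, appl_cons, rhoOf_sC M hP hM (hw j (by simp)),
      ih (fun a ha => hw a (by simp [ha]))]

theorem rho_pow_wp {w : List ℕ} (hw : ∀ j ∈ w, j < n) (k : ℕ) (y : Fin N) :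
    (((rhoOf M hP hM (wp (sC M) w)) ^ k) y).val = iter k (appl sg w) y.val := by
  induction k generalizing y with
  | zero => rfl
  | succ k ih =>
    rw [pow_succ, Equiv.Perm.mul_apply, ih, iter_succ, rho_wp M hP hM hw]

/-- The Coxeter element as a word in the generators. -/
theorem cox_eq : ((List.finRange n).map M.simple).prod = wp (sC M) (List.range n) := by
  have h : (List.range n).map (sC M) = (List.finRange n).map M.simple := by
    rw [← List.map_coe_finRange_eq_range, List.map_map]
    apply List.map_congr_left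
    intro i _
    exact sC_fin M i
  rw [wp, h]

/-- The order of a word, when the representation is faithful. -/
theorem orderOf_wp (hinj : Function.Injective (rhoOf M hP hM)) {w : List ℕ} (hw : ∀ j ∈ w, j < n)
    (h y0 : ℕ) (hy0 : y0 < N) (hh : 0 < h)
    (c1 : lall (fun x => Nat.beq (iter h (appl sg w) x) x) (List.range N) = true)
    (c2 : lall (fun k => Bool.not (Nat.beq (iter (k + 1) (appl sg w) y0) y0)) (List.range (h - 1)) = true) :
    orderOf (wp (sC M) w) = h := by
  rw [← orderOf_injective _ hinj, orderOf_eq_iff hh]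
  simp only [lall_eq, List.all_eq_true, List.mem_range] at c1 c2
  constructor
  · ext y
    rw [rho_pow_wp M hP hM hw]
    simpa using c1 y y.2
  · intro m hm hm0 heq
    have h2 := c2 (m - 1) (by omega)
    have h3 : m - 1 + 1 = m := by omega
    rw [h3] at h2
    have h4 : ((rhoOf M hP hM (wp (sC M) w)) ^ m) ⟨y0, hy0⟩ = ⟨y0, hy0⟩ := by rw [heq]; rfl
    have h5 := rho_pow_wp M hP hM hw m ⟨y0, hy0⟩
    rw [h4] at h5
    simp only at h5
    rw [← h5] at h2
    simp at h2

end

end

end Cfsg.Agent.Lib.Chevalley.Weyl
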